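import Cfsg.Agent.H922.D3.Num

/-!
# The kernel `j (h v v') * j (G_2)` (helper922)

* `Nz q v w` : normalised Plücker coordinates; `rel_zero`; **`ex_one`** : `14 ≤ dim V`.
-/

set_option autoImplicit false
set_option linter.unusedSectionVars false

namespace Cfsg.Agent.H922.D3

open Cfsg Cfsg.Geo Matrix Cfsg.Agent.H876.D3
open LieClassical.HermBasic LieClassical.HermSiegel Cfsg.Agent.TitsThree.KSideU Cfsg.Agent.TitsThree.KSideUDesc
  Cfsg.Agent.TitsThree.WBridge Cfsg.Agent.TitsThree.SiegelGen Cfsg.Agent.TitsThree.Siegel Cfsg.Agent.H61.SUCross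
  Cfsg.Agent.TitsThree.WittFrame
open Cfsg.Agent.Phan (fixedField mem_fixedField card_fixedField)

variable {K : Type} [Field K] [Fintype K] {q : ℕ}

/-- normalised pairs -/
structure Nz (q : ℕ) (v w : Fin 4 → K) : Prop where
  n0 : pl v w 0 ^ q = pl v w 0
  n1 : pl v w 1 ^ q = -pl v w 1
  n2 : pl v w 2 ^ q = -pl v w 2
  n3 : pl v w 3 ^ q = pl v w 3
  n4 : pl v w 4 ^ q = pl v w 5

theorem Nz.herm (hK : Fintype.card K = q ^ 2) {v w v' w' : Fin 4 → K} (h : Nz q v w) (h' : Nz q v' w') :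
    (∑ b, pl v w b * pl v' w' b ^ q) ^ q = ∑ b, pl v w b * pl v' w' b ^ q := by
  have e5 : pl v w 5 ^ q = pl v w 4 := by rw [← h.n4, pow_q_pow_q hK]
  have e5' : pl v' w' 5 ^ q = pl v' w' 4 := by rw [← h'.n4, pow_q_pow_q hK]
  rw [Fin.sum_univ_six]
  simp only [add_pow_q hK, mul_pow, h.n0, h.n1, h.n2, h.n3, h.n4, h'.n0, h'.n1, h'.n2, h'.n3, h'.n4, e5, e5',
    neg_pow_q hK]
  ring

theorem ln_A (hK : Fintype.card K = q ^ 2) {ε : K} (hε : ε ^ q = -ε) (hε0 : ε ≠ 0) {a b c d : K} (ha : a ^ q = a)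
    (hb : b ^ q = b) (hc : c ^ q = c) (hd : d ^ q = d) (h1 : a ≠ 0 ∨ b ≠ 0) (h2 : c ≠ 0 ∨ d ≠ 0) :
    Ln q ![a, ε * b, 0, 0] ![0, 0, c, ε * d] where
  vv := by simp [mul_pow, hε, ha, hb, zero_pow_q hK]; ring
  vw := by simp [zero_pow_q hK]
  wv := by simp [zero_pow_q hK]
  ww := by simp [mul_pow, hε, hc, hd]; ring
  pl_ne := by
    rcases h1 with h1 | h1 <;> rcases h2 with h2 | h2
    · exact ⟨0, by simp [pl, h1, h2]⟩
    · exact ⟨1, by simp [pl, h1, h2, hε0]⟩
    · exact ⟨2, by simp [pl, h1, h2, hε0]⟩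
    · exact ⟨3, by simp [pl, h1, h2, hε0]⟩

theorem nz_A (hK : Fintype.card K = q ^ 2) {ε : K} (hε : ε ^ q = -ε) {a b c d : K} (ha : a ^ q = a)
    (hb : b ^ q = b) (hc : c ^ q = c) (hd : d ^ q = d) : Nz q ![a, ε * b, 0, 0] ![0, 0, c, ε * d] where
  n0 := by simp [pl, mul_pow, ha, hc]
  n1 := by simp [pl, mul_pow, ha, hd, hε]
  n2 := by simp [pl, mul_pow, hb, hc, hε]
  n3 := by simp [pl, mul_pow, hb, hd, hε]
  n4 := by simp [pl, zero_pow_q hK]

/-- swapped pairs -/
theorem pl_swap (v w : Fin 4 → K) : pl w (fun i => -v i) = pl v w := by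
  funext b
  fin_cases b <;> simp [pl] <;> ring

theorem ln_swap (hK : Fintype.card K = q ^ 2) {v w : Fin 4 → K} (h : Ln q v w) : Ln q w (fun i => -v i) where
  vv := h.ww
  vw := by
    simp only [neg_pow_q hK]
    linear_combination -h.wv
  wv := by linear_combination -h.vw
  ww := by
    simp only [neg_pow_q hK]
    linear_combination h.vv
  pl_ne := by rw [pl_swap]; exact h.pl_ne

theorem nz_swap {v w : Fin 4 → K} (h : Nz q v w) : Nz q w (fun i => -v i) := by
  constructor <;> rw [pl_swap]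
  · exact h.n0
  · exact h.n1
  · exact h.n2
  · exact h.n3
  · exact h.n4

theorem nz_ell (hK : Fintype.card K = q ^ 2) (z : K) : Nz q ![1, 0, 0, z] ![0, -z ^ q, 1, 0] where
  n0 := by simp [pl]
  n1 := by simp [pl, zero_pow_q hK]
  n2 := by simp [pl, zero_pow_q hK]
  n3 := by simp [pl, mul_pow, pow_q_pow_q hK, mul_comm]
  n4 := by simp [pl, neg_pow_q hK, pow_q_pow_q hK]

theorem ln_ell' (hK : Fintype.card K = q ^ 2) {ε : K} (hε : ε ^ q = -ε) (hε0 : ε ≠ 0) (z : K) :
    Ln q ![1, 0, z, 0] ![0, -(ε * z ^ q), 0, ε] where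
  vv := by simp [zero_pow_q hK]
  vw := by simp [zero_pow_q hK, neg_pow_q hK, mul_pow, pow_q_pow_q hK, hε]; ring
  wv := by simp [zero_pow_q hK]
  ww := by simp [zero_pow_q hK]
  pl_ne := ⟨1, by simp [pl, hε0]⟩

theorem nz_ell' (hK : Fintype.card K = q ^ 2) {ε : K} (hε : ε ^ q = -ε) (z : K) :
    Nz q ![1, 0, z, 0] ![0, -(ε * z ^ q), 0, ε] where
  n0 := by simp [pl, zero_pow_q hK]
  n1 := by simp [pl, hε]
  n2 := by simp [pl, mul_pow, pow_q_pow_q hK, hε]; ring
  n3 := by simp [pl, zero_pow_q hK]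
  n4 := by simp [pl, neg_pow_q hK, mul_pow, pow_q_pow_q hK, hε]; ring

/-- the exceptional coordinates -/
def S5 : Finset (Fin 4 × Fin 6) := {(1, 0), (1, 1), (3, 0), (3, 2), (0, 4)}

theorem rel_zero (hK : Fintype.card K = q ^ 2) {k : Type*} [Field k] (j : K →+* k) (c : Fin 4 × Fin 6 → k)
    (h : ∀ v w : Fin 4 → K, Ln q v w → Nz q v w → ∑ a : Fin 4 × Fin 6, j (v a.1 * pl v w a.2) * c a = 0)
    (hS : ∀ a ∈ S5, c a = 0) : c = 0 := by
  obtain ⟨ε, hε, hε0⟩ := exists_delta hK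
  have hq2 : 2 ≤ q := two_le_q hK
  have hj : j ε ≠ 0 := (map_ne_zero j).2 hε0
  have h1q : (1 : K) ^ q = 1 := one_pow _
  have h0q : (0 : K) ^ q = 0 := zero_pow_q hK
  have s10 : c (1, 0) = 0 := hS _ (by decide)
  have s11 : c (1, 1) = 0 := hS _ (by decide)
  have s30 : c (3, 0) = 0 := hS _ (by decide)
  have s32 : c (3, 2) = 0 := hS _ (by decide)
  have s04 : c (0, 4) = 0 := hS _ (by decide)
  -- the flags `A`
  have hA : ∀ a b c' d : K, a ^ q = a → b ^ q = b → c' ^ q = c' → d ^ q = d → (a ≠ 0 ∨ b ≠ 0) → (c' ≠ 0 ∨ d ≠ 0) →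
      (∑ a_1 : Fin 4 × Fin 6, j ((![a, ε * b, 0, 0] : Fin 4 → K) a_1.1 * pl ![a, ε * b, 0, 0] ![0, 0, c', ε * d] a_1.2) * c a_1 = 0) ∧
      (∑ a_1 : Fin 4 × Fin 6, j ((![0, 0, c', ε * d] : Fin 4 → K) a_1.1 * pl ![a, ε * b, 0, 0] ![0, 0, c', ε * d] a_1.2) * c a_1 = 0) := by
    intro a b c' d ha hb hc hd h1 h2
    have e1 := ln_A hK hε hε0 ha hb hc hd h1 h2
    have e2 := nz_A hK hε ha hb hc hd
    refine ⟨h _ _ e1 e2, ?_⟩
    have e3 := h _ _ (ln_swap hK e1) (nz_swap e2)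
    rwa [pl_swap] at e3
  have t1 := hA 1 0 1 0 h1q h0q h1q h0q (Or.inl one_ne_zero) (Or.inl one_ne_zero)
  have t2 := hA 1 0 0 1 h1q h0q h0q h1q (Or.inl one_ne_zero) (Or.inr one_ne_zero)
  have t3 := hA 0 1 1 0 h0q h1q h1q h0q (Or.inr one_ne_zero) (Or.inl one_ne_zero)
  have t4 := hA 0 1 0 1 h0q h1q h0q h1q (Or.inr one_ne_zero) (Or.inr one_ne_zero)
  have t5 := (hA 1 1 1 0 h1q h1q h1q h0q (Or.inl one_ne_zero) (Or.inl one_ne_zero)).1
  have t6 := (hA 1 1 0 1 h1q h1q h0q h1q (Or.inl one_ne_zero) (Or.inr one_ne_zero)).1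
  have t7 := (hA 1 0 1 1 h1q h0q h1q h1q (Or.inl one_ne_zero) (Or.inl one_ne_zero)).2
  have t8 := (hA 0 1 1 1 h0q h1q h1q h1q (Or.inr one_ne_zero) (Or.inl one_ne_zero)).2
  simp only [Fintype.sum_prod_type, Fin.sum_univ_four, Fin.sum_univ_six, pl, Matrix.cons_val] at t1 t2 t3 t4 t5 t6 t7 t8
  simp [hj] at t1 t2 t3 t4
  obtain ⟨c00, c20⟩ := t1
  obtain ⟨c01, c31⟩ := t2
  obtain ⟨c12, c22⟩ := t3
  obtain ⟨c13, c33⟩ := t4
  simp [hj, c00, c20, c01, c31, c12, c22, c13, c33, s10, s11, s30, s32] at t5 t6 t7 t8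
  -- the lines `ℓ`
  have l1 : ∀ z : K, j z ^ q * c (0, 4) + (j z * c (0, 5) + (j z ^ (q + 1) * c (3, 4) + j z ^ 2 * c (3, 5))) = 0 := by
    intro z
    have e1 := h _ _ (ln_ell hK z) (nz_ell hK z)
    simp only [Fintype.sum_prod_type, Fin.sum_univ_four, Fin.sum_univ_six, pl, Matrix.cons_val] at e1
    simp [c00, c20, c01, c31, c12, c22, c13, c33, s10, s11, s30, s32, t5, t6, t7, t8] at e1
    linear_combination -e1
  have l2 : ∀ z : K, -(j z ^ q * c (0, 4)) + (j z * c (0, 5) - (j z ^ (q + 1) * c (2, 4) - j z ^ 2 * c (2, 5))) = 0 := by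
    intro z
    have e1 := h _ _ (ln_ell' hK hε hε0 z) (nz_ell' hK hε z)
    simp only [Fintype.sum_prod_type, Fin.sum_univ_four, Fin.sum_univ_six, pl, Matrix.cons_val] at e1
    simp [c00, c20, c01, c31, c12, c22, c13, c33, s10, s11, s30, s32, t5, t6, t7, t8] at e1
    have e2 : j ε * (-(j z ^ q * c (0, 4)) + (j z * c (0, 5) - (j z ^ (q + 1) * c (2, 4) - j z ^ 2 * c (2, 5)))) = 0 := by
      linear_combination e1
    exact (mul_eq_zero.1 e2).resolve_left hj
  have l3 : ∀ z : K, j z ^ q * (j z ^ q * c (1, 4) + j z * c (1, 5)) - (j z ^ q * c (2, 4) + j z * c (2, 5)) = 0 := by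
    intro z
    have e1 := h _ _ (ln_swap hK (ln_ell hK z)) (nz_swap (nz_ell hK z))
    rw [pl_swap] at e1
    simp only [Fintype.sum_prod_type, Fin.sum_univ_four, Fin.sum_univ_six, pl, Matrix.cons_val] at e1
    simp [c00, c20, c01, c31, c12, c22, c13, c33, s10, s11, s30, s32, t5, t6, t7, t8] at e1
    linear_combination e1
  have hqK : q + 1 < Fintype.card K := by
    rw [hK]
    calc q + 1 < q + q := by omega
      _ = 2 * q := by ring
      _ ≤ q * q := Nat.mul_le_mul_right q hq2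
      _ = q ^ 2 := (sq q).symm
  have k1 := pow_indep j.injective (n := 3) ![1, q + 1, 2] (by
      intro a b hab
      fin_cases a <;> fin_cases b <;> simp at hab ⊢ <;> omega) (by
      intro i
      fin_cases i
      · change 1 < _; omega
      · change q + 1 < _; omega
      · change 2 < _; omega) ![c (0, 5), c (3, 4), c (3, 5)] (by
      intro z
      have e1 := l1 z
      rw [Fin.sum_univ_three]
      simp only [Matrix.cons_val]
      rw [s04] at e1
      linear_combination e1)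
  have c05 : c (0, 5) = 0 := congrFun k1 0
  have c34 : c (3, 4) = 0 := congrFun k1 1
  have c35 : c (3, 5) = 0 := congrFun k1 2
  have k2 := pow_indep j.injective (n := 2) ![q + 1, 2] (by
      intro a b hab
      fin_cases a <;> fin_cases b <;> simp at hab ⊢ <;> omega) (by
      intro i
      fin_cases i
      · change q + 1 < _; omega
      · change 2 < _; omega) ![-c (2, 4), c (2, 5)] (by
      intro z
      have e1 := l2 z
      rw [Fin.sum_univ_two]
      simp only [Matrix.cons_val_zero, Matrix.cons_val_one]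
      rw [s04, c05] at e1
      linear_combination e1)
  have c24 : c (2, 4) = 0 := neg_eq_zero.1 (congrFun k2 0)
  have c25 : c (2, 5) = 0 := congrFun k2 1
  have k3 := pow_indep j.injective (n := 2) ![q, 1] (by
      intro a b hab
      fin_cases a <;> fin_cases b <;> simp at hab ⊢ <;> omega) (by
      intro i
      fin_cases i
      · change q < _; omega
      · change 1 < _; omega) ![c (1, 4), c (1, 5)] (by
      intro z
      have e1 := l3 z
      rw [Fin.sum_univ_two]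
      simp only [Matrix.cons_val_zero, Matrix.cons_val_one]
      rw [c24, c25, mul_zero, mul_zero, add_zero, sub_zero] at e1
      by_cases hz : j z = 0
      · rw [hz, zero_pow (by omega), zero_pow one_ne_zero, mul_zero, mul_zero, add_zero]
      · have e2 := (mul_eq_zero.1 e1).resolve_left (pow_ne_zero _ hz)
        linear_combination e2)
  have c14 : c (1, 4) = 0 := congrFun k3 0
  have c15 : c (1, 5) = 0 := congrFun k3 1
  funext ⟨a, b⟩
  fin_cases a <;> fin_cases b <;> simp [c00, c20, c01, c31, c12, c22, c13, c33, s10, s11, s30, s32, t5, t6, t7, t8, s04,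
    c05, c34, c35, c24, c25, c14, c15]

section

variable {k : Type*} [Field k] {V : Type*} [AddCommGroup V] [Module k V] [FiniteDimensional k V] {j : K →+* k}

theorem ex_one (hK : Fintype.card K = q ^ 2) {l : ℕ} (hl : l ≠ 0) (hr : red q l = 1) (h : KerC q j 1 l V) :
    14 ≤ Module.finrank k V := by
  obtain ⟨vv, ff, h⟩ := h
  let X := {x : Pr K // Ln q x.1 x.2 ∧ Nz q x.1 x.2}
  have key := sylvester (k := k) (X := X) (Y := X) (α := Fin 4 × Fin 6) (vv := fun x => vv x.1) (ff := fun y => ff y.1)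
    (F := fun x a => j (x.1.1 a.1 * pl x.1.1 x.1.2 a.2)) (G := fun y a => jb hK j (y.1.1 a.1 * pl y.1.1 y.1.2 a.2))
    (fun x y => by
      rw [h _ _ x.2.1 y.2.1, pow_one]
      have e1 := pow_red' hK (x.2.2.herm hK y.2.2) hl
      rw [hr, pow_one] at e1
      rw [← map_pow, ← e1, map_sum, map_sum, Finset.sum_mul_sum, ← Finset.sum_product', Finset.univ_product_univ]
      refine Finset.sum_congr rfl fun a _ => ?_
      rw [jb_apply, map_mul, map_mul, map_mul, map_pow, map_pow, map_pow, map_mul, mul_pow]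
      ring) (S := S5) (S' := S5)
    (fun c hc hS => rel_zero hK j c (fun v w h1 h2 => hc ⟨(v, w), h1, h2⟩) hS)
    (fun c hc hS => rel_zero hK (jb hK j) c (fun v w h1 h2 => hc ⟨(v, w), h1, h2⟩) hS)
  have h5 : S5.card = 5 := by decide
  rw [Fintype.card_prod, Fintype.card_fin, Fintype.card_fin, h5] at key
  omega

end

end Cfsg.Agent.H922.D3
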