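import Cfsg.Agent.H922.D3.ExOne

/-!
# The kernel `j (h v v') * j (G_2) ^ 2`, `p = 3` (helper922)

* **`ex_two`** : `13 ≤ dim V`.
-/

set_option autoImplicit false
set_option linter.unusedSectionVars false

namespace Cfsg.Agent.H922.D3

open Cfsg Cfsg.Geo Matrix Cfsg.Agent.H876.D3
open LieClassical.HermBasic LieClassical.HermSiegel Cfsg.Agent.TitsThree.KSideU Cfsg.Agent.TitsThree.KSideUDesc
  Cfsg.Agent.TitsThree.WBridge Cfsg.Agent.TitsThree.SiegelGen Cfsg.Agent.TitsThree.Siegel Cfsg.Agent.H61.SUCross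
  Cfsg.Agent.TitsThree.WittFrame
open Cfsg.Agent.Phan (fixedField mem_fixedField card_fixedField)

variable {K : Type} [Field K] [Fintype K] {q : ℕ}

section

variable {k : Type*} [Field k] {V : Type*} [AddCommGroup V] [Module k V] [FiniteDimensional k V] {j : K →+* k}

theorem ex_two [hp : Fact (Nat.Prime 3)] [CharP K 3] [CharP k 3] (hK : Fintype.card K = q ^ 2) {l : ℕ} (hl : l ≠ 0)
    (hr : red q l = 2) (h : KerC q j 1 l V) : 13 ≤ Module.finrank k V := by
  classical
  obtain ⟨ε, c, hε, hε0, hc0, hc⟩ := exists_c hK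
  have : Fintype (fixedField hK) := Fintype.ofFinite _
  have hE : Fintype.card (fixedField hK) = q := card_E hK
  have hq2 : 2 ≤ q := two_le_q hK
  have hq3 : 3 ≤ q := by
    have := red_le (e := l) hq2
    omega
  have hθ : 1 < Fintype.card K := Fintype.one_lt_card
  let jE : fixedField hK →+* k := j.comp (fixedField hK).subtype
  obtain ⟨B, hB⟩ := exists_dual_pow jE jE.injective
  rw [hE] at hB
  let f : (K × (fixedField hK × fixedField hK)) ⊕ Unit → Pr K :=
    Sum.elim (sf ε) (fun _ => (![1, 0, 0, 1], ![0, -1 ^ q, 1, 0]))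
  let g : (K × (fixedField hK × fixedField hK)) ⊕ (fixedField hK × fixedField hK) → Pr K :=
    Sum.elim (sf ε) (fun y => sf ε (0, y))
  have hf : ∀ x, Ln q (f x).1 (f x).2 := by
    rintro (x | x)
    · exact ln_sf hε x
    · exact ln_ell hK 1
  have hg : ∀ x, Ln q (g x).1 (g x).2 := by
    rintro (x | x)
    · exact ln_sf hε x
    · exact ln_sf hε _
  have hS := S_rank 3 (j := j) hc0 hθ hl
  have h12 : 12 ≤ ∑ i ∈ Ib 3 1, RR' 3 q (1 - i + l) * RR' 3 q (i + l) := by
    have e3 : 3 ≤ RR' 3 q l := by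
      unfold RR'
      rw [hr, Ib_two (by norm_num)]
      decide
    have e2 := two_le_RR' (p := 3) q (1 + l)
    rw [Ib_one, Finset.sum_pair (by norm_num)]
    have e4 : 3 * 2 ≤ RR' 3 q l * RR' 3 q (1 + l) := Nat.mul_le_mul e3 e2
    simp only [Nat.sub_zero, Nat.sub_self, zero_add]
    rw [mul_comm (RR' 3 q (1 + l))]
    omega
  have hu : Fintype.card Unit = 1 := rfl
  refine le_trans (by omega : 13 ≤ (∑ i ∈ Ib 3 1, RR' 3 q (1 - i + l) * RR' 3 q (i + l)) + Fintype.card Unit)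
    (h.le_finrank hf hg (Rk.add_sum (hS.congr fun x y => ?_)
      (fun _ _ => (jE c ^ 2)⁻¹) (fun _ y => B 2 y.1 * B 2 y.2) ?_ ?_))
  · -- the flags `S`
    change j (∑ i, (sf ε x).1 i * (sf ε y).1 i ^ q) ^ 1 *
      j (∑ b, pl (sf ε x).1 (sf ε x).2 b * pl (sf ε y).1 (sf ε y).2 b ^ q) ^ l = _
    rw [h_sf hε hc, g_sf hε hc]
  · -- the extra line
    rintro ⟨⟩ ⟨⟩
    rw [if_pos rfl]
    have hκ : ∀ y : fixedField hK × fixedField hK,
        j (∑ i, (![1, 0, 0, 1] : Fin 4 → K) i * (sf ε ((0 : K), y)).1 i ^ q) ^ 1 *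
          j (∑ b, pl ![1, 0, 0, 1] ![0, -1 ^ q, 1, 0] b * pl (sf ε ((0 : K), y)).1 (sf ε ((0 : K), y)).2 b ^ q) ^ l =
        1 + (jE c * jE y.1 * jE y.2 + jE c ^ 2 * (jE y.1 ^ 2 * jE y.2 ^ 2)) := by
      rintro ⟨s, t⟩
      have e1 : ∑ i, (![1, 0, 0, 1] : Fin 4 → K) i * (sf ε ((0 : K), (s, t))).1 i ^ q = 1 := by
        rw [Fin.sum_univ_four]
        simp [sf, zero_pow_q hK]
      have e2 : ∑ b, pl ![1, 0, 0, 1] ![0, -1 ^ q, 1, 0] b *
          pl (sf ε ((0 : K), (s, t))).1 (sf ε ((0 : K), (s, t))).2 b ^ q = ((1 - c * (s * t) : fixedField hK) : K) := by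
        simp only [Fin.sum_univ_six, sf, pl, Matrix.cons_val]
        push_cast
        simp only [mul_one, mul_zero, zero_mul, sub_zero, one_mul, one_pow, zero_pow_q hK, mul_pow, hε, E_q hK, sub_self]
        rw [hc]
        ring
      have e3 : (((1 - c * (s * t) : fixedField hK) : K)) ^ l = ((1 - c * (s * t) : fixedField hK) : K) ^ 2 := by
        have := pow_red' hK (E_q hK (1 - c * (s * t))) hl
        rw [hr] at this
        exact this.symm
      rw [e1, e2, map_one, one_pow, one_mul, ← map_pow, e3, map_pow]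
      have e4 : j ((1 - c * (s * t) : fixedField hK) : K) = 1 - jE c * (jE s * jE t) := by
        change jE (1 - c * (s * t)) = _
        rw [map_sub, map_one, map_mul, map_mul]
      rw [e4]
      have h3 : (3 : k) = 0 := by exact_mod_cast CharP.cast_eq_zero k 3
      linear_combination (-(jE c * (jE s * jE t))) * h3
    have e0 : ∀ (a b : ℕ), a < q → b < q → ∑ y : fixedField hK × fixedField hK, (jE y.1 ^ a * jE y.2 ^ b) * (B 2 y.1 * B 2 y.2) =
        if a = 2 ∧ b = 2 then 1 else 0 := by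
      intro a b ha hb
      have e1 : ∑ y : fixedField hK × fixedField hK, (jE y.1 ^ a * jE y.2 ^ b) * (B 2 y.1 * B 2 y.2) =
          (∑ s, B 2 s * jE s ^ a) * ∑ t, B 2 t * jE t ^ b := by
        rw [Finset.sum_mul_sum, Fintype.sum_prod_type]
        exact Finset.sum_congr rfl fun s _ => Finset.sum_congr rfl fun t _ => by ring
      rw [e1, hB 2 (by omega) a ha, hB 2 (by omega) b hb]
      by_cases h1 : a = 2 <;> by_cases h2 : b = 2 <;> simp [h1, h2, eq_comm]
    have hjc : jE c ≠ 0 := (map_ne_zero jE).2 hc0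
    unfold bl
    rw [Fintype.sum_unique]
    have e5 : ∀ y : fixedField hK × fixedField hK, (jE c ^ 2)⁻¹ *
        (j (∑ i, (![1, 0, 0, 1] : Fin 4 → K) i * (sf ε ((0 : K), y)).1 i ^ q) ^ 1 *
          j (∑ b, pl ![1, 0, 0, 1] ![0, -1 ^ q, 1, 0] b * pl (sf ε ((0 : K), y)).1 (sf ε ((0 : K), y)).2 b ^ q) ^ l) *
        (B 2 y.1 * B 2 y.2) =
        (jE c ^ 2)⁻¹ * ((jE y.1 ^ 0 * jE y.2 ^ 0) * (B 2 y.1 * B 2 y.2)) +
          ((jE c ^ 2)⁻¹ * jE c * ((jE y.1 ^ 1 * jE y.2 ^ 1) * (B 2 y.1 * B 2 y.2)) +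
          (jE c ^ 2)⁻¹ * jE c ^ 2 * ((jE y.1 ^ 2 * jE y.2 ^ 2) * (B 2 y.1 * B 2 y.2))) := by
      intro y
      rw [hκ]
      ring
    refine (Finset.sum_congr rfl fun y _ => e5 y).trans ?_
    rw [Finset.sum_add_distrib, Finset.sum_add_distrib, ← Finset.mul_sum, ← Finset.mul_sum, ← Finset.mul_sum,
      e0 0 0 (by omega) (by omega), e0 1 1 (by omega) (by omega), e0 2 2 (by omega) (by omega)]
    simp only [inv_mul_cancel₀ (pow_ne_zero 2 hjc)]
    simp
  · -- orthogonality
    rintro ⟨lam, s, t⟩ ⟨⟩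
    have hκ : ∀ y : fixedField hK × fixedField hK,
        j (∑ i, (sf ε (lam, (s, t))).1 i * (sf ε ((0 : K), y)).1 i ^ q) ^ 1 *
          j (∑ b, pl (sf ε (lam, (s, t))).1 (sf ε (lam, (s, t))).2 b *
            pl (sf ε ((0 : K), y)).1 (sf ε ((0 : K), y)).2 b ^ q) ^ l =
        jE (1 + c * (s * y.1)) ^ (l + 1) * jE (1 + c * (t * y.2)) ^ l := by
      intro y
      rw [h_sf hε hc, g_sf hε hc]
      simp only
      rw [zero_pow_q hK, mul_zero, zero_mul, add_zero, pow_one, map_mul, mul_pow, pow_succ]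
      change jE (1 + c * (s * y.1)) * (jE (1 + c * (s * y.1)) ^ l * jE (1 + c * (t * y.2)) ^ l) = _
      ring
    have hzero : ∑ s' : fixedField hK, jE (1 + c * (s * s')) ^ (l + 1) * B 2 s' = 0 := by
      have e0 : ∀ a, a < q → a ≠ 2 → ∑ s' : fixedField hK, B 2 s' * jE s' ^ a = 0 := by
        intro a ha ha2
        rw [hB 2 (by omega) a ha, if_neg (fun h => ha2 h.symm)]
      have hpw : ∀ s' : fixedField hK, jE (1 + c * (s * s')) ^ (l + 1) =
          jE (1 + c * (s * s')) ^ red q (l + 1) := by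
        intro s'
        have := pow_red (E := fixedField hK) (e := l + 1) (by omega) (1 + c * (s * s'))
        rw [hE] at this
        rw [← map_pow, ← map_pow, this]
      rcases Nat.lt_or_ge 3 q with h3 | h3
      · have h1 := red_succ (Q := q) hl (by rw [hr]; omega)
        rw [hr] at h1
        have e1 : ∀ s' : fixedField hK, jE (1 + c * (s * s')) ^ (l + 1) * B 2 s' =
            B 2 s' * jE s' ^ 0 + jE (c * s) ^ 3 * (B 2 s' * jE s' ^ 3) := by
          intro s'
          rw [hpw, h1, map_add, map_one, map_mul, map_mul, add_pow_char, map_mul]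
          ring
        rw [Finset.sum_congr rfl fun s' _ => e1 s', Finset.sum_add_distrib, ← Finset.mul_sum,
          e0 0 (by omega) (by norm_num), e0 3 h3 (by norm_num), mul_zero, add_zero]
      · have h4 : q = 3 := le_antisymm h3 hq3
        have h1 := red_succ_top (Q := q) hq2 hl (by rw [hr, h4])
        have e1 : ∀ s' : fixedField hK, jE (1 + c * (s * s')) ^ (l + 1) * B 2 s' =
            B 2 s' * jE s' ^ 0 + jE (c * s) * (B 2 s' * jE s' ^ 1) := by
          intro s'
          rw [hpw, h1, map_add, map_one, map_mul, map_mul, map_mul]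
          ring
        rw [Finset.sum_congr rfl fun s' _ => e1 s', Finset.sum_add_distrib, ← Finset.mul_sum,
          e0 0 (by omega) (by norm_num), e0 1 (by omega) (by norm_num), mul_zero, add_zero]
    have e5 : ∀ y : fixedField hK × fixedField hK,
        (j (∑ i, (sf ε (lam, (s, t))).1 i * (sf ε ((0 : K), y)).1 i ^ q) ^ 1 *
          j (∑ b, pl (sf ε (lam, (s, t))).1 (sf ε (lam, (s, t))).2 b *
            pl (sf ε ((0 : K), y)).1 (sf ε ((0 : K), y)).2 b ^ q) ^ l) * (B 2 y.1 * B 2 y.2) =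
        (jE (1 + c * (s * y.1)) ^ (l + 1) * B 2 y.1) * (jE (1 + c * (t * y.2)) ^ l * B 2 y.2) := by
      intro y
      rw [hκ]
      ring
    refine (Finset.sum_congr rfl fun y _ => e5 y).trans ?_
    rw [Fintype.sum_prod_type]
    simp only
    rw [← Finset.sum_mul_sum, hzero, zero_mul]

end

end Cfsg.Agent.H922.D3
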