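import Cfsg.Agent.H876.D3.PairBound

/-!
# Two neighbouring positions of a frame: the kernel in coordinates (helper922)

* `vc W ι c v` : the vector with the coordinates `v` at the positions `ι 0`, `ι 1`;
* `prod_patch` : the kernel of the patched frames;
* `KerC q j θ l V` : vectors and functionals of the isotropic lines in coordinates with the values
  `j (h v v') ^ θ * j (G_2) ^ l`; `KerC.of_isKer`, `KerC.twist`, `KerC.le_finrank`, `KerC.sylvester`.
-/

set_option autoImplicit false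
set_option linter.unusedSectionVars false

namespace Cfsg.Agent.H922.D3

open Cfsg Cfsg.Geo Matrix Cfsg.Agent.H876.D3
open LieClassical.HermBasic LieClassical.HermSiegel Cfsg.Agent.TitsThree.KSideU Cfsg.Agent.TitsThree.KSideUDesc
  Cfsg.Agent.TitsThree.WBridge Cfsg.Agent.TitsThree.SiegelGen Cfsg.Agent.TitsThree.Siegel Cfsg.Agent.H61.SUCross
  Cfsg.Agent.TitsThree.WittFrame
open Cfsg.Agent.Phan (fixedField mem_fixedField card_fixedField)

variable {K : Type} [Field K] [Fintype K] {N q m : ℕ} {hK : Fintype.card K = q ^ 2}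

section coords

variable (W : WFrame (PU hK N) m) {ι : Fin 2 → Fin m}

/-- the vector with the coordinates `v` -/
noncomputable def vc (ι : Fin 2 → Fin m) (c : Bool) (v : Fin 4 → K) : Fin N → K :=
  v 0 • (toFrame W).b (ι 0, c) + v 1 • (toFrame W).b (ι 0, !c) +
    (v 2 • (toFrame W).b (ι 1, c) + v 3 • (toFrame W).b (ι 1, !c))

theorem herm_vc_dual (hι : ι 0 ≠ ι 1) (c : Bool) (v w : Fin 4 → K) :
    hermForm N K q (vc W ι c v) (vc W ι (!c) w) = v 0 * w 0 ^ q + v 1 * w 1 ^ q + v 2 * w 2 ^ q + v 3 * w 3 ^ q := by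
  unfold vc
  simp only [herm_add_left, herm_add_right hK, herm_smul_left, herm_smul_right, hb_all]
  cases c <;> simp [hι, hι.symm] <;> ring

theorem herm_vc (hι : ι 0 ≠ ι 1) (c : Bool) (v w : Fin 4 → K) :
    hermForm N K q (vc W ι c v) (vc W ι c w) = v 0 * w 1 ^ q + v 1 * w 0 ^ q + v 2 * w 3 ^ q + v 3 * w 2 ^ q := by
  unfold vc
  simp only [herm_add_left, herm_add_right hK, herm_smul_left, herm_smul_right, hb_all]
  cases c <;> simp [hι, hι.symm] <;> ring

theorem perp_vc (r : ℕ) (c : Bool) (v : Fin 4 → K) : Perp W r ι (vc W ι c v) := by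
  intro a _ ha d
  have h0 : a ≠ ι 0 := fun h => ha ⟨0, h.symm⟩
  have h1 : a ≠ ι 1 := fun h => ha ⟨1, h.symm⟩
  unfold vc
  simp only [herm_add_right hK, herm_smul_right, hb_all]
  simp [h0, h1]

/-- the unit vectors of the dual coordinates -/
theorem exists_wit (hι : ι 0 ≠ ι 1) (c : Bool) {v w : Fin 4 → K} (h : Ln q v w) : ∃ x : Fin 2 → Fin 4 → K,
    (Matrix.of fun t t' => hermForm N K q (![vc W ι c v, vc W ι c w] t) (vc W ι (!c) (x t'))).det ≠ 0 := by
  obtain ⟨b, hb⟩ := h.pl_ne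
  have key : ∀ r s : Fin 4, v r * w s - v s * w r ≠ 0 → ∃ x : Fin 2 → Fin 4 → K,
      (Matrix.of fun t t' => hermForm N K q (![vc W ι c v, vc W ι c w] t) (vc W ι (!c) (x t'))).det ≠ 0 := by
    intro r s hrs
    refine ⟨![Pi.single r 1, Pi.single s 1], ?_⟩
    rw [Matrix.det_fin_two]
    simp only [Matrix.of_apply, Matrix.cons_val_zero, Matrix.cons_val_one, herm_vc_dual W hι]
    have hs : ∀ (u : Fin 4 → K) (l : Fin 4), u 0 * (Pi.single l 1 : Fin 4 → K) 0 ^ q + u 1 * (Pi.single l 1 : Fin 4 → K) 1 ^ q +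
        u 2 * (Pi.single l 1 : Fin 4 → K) 2 ^ q + u 3 * (Pi.single l 1 : Fin 4 → K) 3 ^ q = u l := by
      intro u l
      fin_cases l <;> simp [zero_pow_q hK]
    rw [hs, hs, hs, hs, mul_comm (v s)]
    intro h0
    apply hrs
    linear_combination h0
  fin_cases b
  · exact key 0 2 hb
  · exact key 0 3 hb
  · exact key 1 2 hb
  · exact key 1 3 hb
  · exact key 0 1 hb
  · exact key 2 3 hb

theorem loc_vc (hι : ι 0 ≠ ι 1) (r : ℕ) (c : Bool) {v w : Fin 4 → K} (h : Ln q v w) :
    Loc W r ι ![vc W ι c v, vc W ι c w] where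
  perp t := by
    fin_cases t
    · exact perp_vc W r c v
    · exact perp_vc W r c w
  iso t t' := by
    fin_cases t <;> fin_cases t'
    · exact (herm_vc W hι c v v).trans h.vv
    · exact (herm_vc W hι c v w).trans h.vw
    · exact (herm_vc W hι c w v).trans h.wv
    · exact (herm_vc W hι c w w).trans h.ww
  wit := by
    obtain ⟨x, hx⟩ := exists_wit W hι c h
    exact ⟨fun t => vc W ι (!c) (x t), fun t => perp_vc W r (!c) (x t), hx⟩

/-- the minor of two pairs -/
theorem det_vc (hι : ι 0 ≠ ι 1) (v w v' w' : Fin 4 → K) :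
    (Matrix.of fun t t' : Fin 2 => hermForm N K q (![vc W ι true v, vc W ι true w] t)
      (![vc W ι false v', vc W ι false w'] t')).det = ∑ b, pl v w b * pl v' w' b ^ q := by
  rw [Matrix.det_fin_two]
  simp only [Matrix.of_apply, Matrix.cons_val_zero, Matrix.cons_val_one]
  have h := herm_vc_dual W hι true
  simp only [Bool.not_true] at h
  rw [h, h, h, h]
  have hs : ∀ a b : K, (a - b) ^ q = a ^ q - b ^ q := fun a b => by
    rw [sub_eq_add_neg, add_pow_q hK, neg_pow_q hK, ← sub_eq_add_neg]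
  simp only [Fin.sum_univ_six, pl, Matrix.cons_val]
  simp only [hs, mul_pow]
  ring

/-- the kernel of the patched frames -/
theorem prod_patch {k : Type*} [Field k] (j : K →+* k) (θ : Fin m → ℕ) {i : Fin m} (hi : (i : ℕ) + 1 < m)
    {x y : Fin 2 → Fin N → K} (hy : ∀ t, Perp W m ![i, ⟨i + 1, hi⟩] (y t)) :
    ∏ l, j (Gr q l (upd W.e ![i, ⟨i + 1, hi⟩] x) (upd W.f ![i, ⟨i + 1, hi⟩] y)) ^ θ l =
      j (hermForm N K q (x 0) (y 0)) ^ θ i *
        j (Matrix.of fun t t' : Fin 2 => hermForm N K q (x t) (y t')).det ^ (∑ l ∈ Finset.univ.filter (i < ·), θ l) := by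
  classical
  set ι : Fin 2 → Fin m := ![i, ⟨i + 1, hi⟩] with hι
  have h0 : ι 0 = i := rfl
  have h1 : ι 1 = ⟨i + 1, hi⟩ := rfl
  have hinj : Function.Injective ι := by
    intro a b hab
    fin_cases a <;> fin_cases b
    · rfl
    · exact absurd (congrArg Fin.val hab) (by simp [hι])
    · exact absurd (congrArg Fin.val hab) (by simp [hι])
    · rfl
  have key : ∀ l, j (Gr q l (upd W.e ι x) (upd W.f ι y)) ^ θ l =
      (if l = i then j (hermForm N K q (x 0) (y 0)) ^ θ l else 1) *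
        (if i < l then j (Matrix.of fun t t' : Fin 2 => hermForm N K q (x t) (y t')).det ^ θ l else 1) := by
    intro l
    rcases lt_trichotomy l i with hl | rfl | hl
    · rw [if_neg hl.ne, if_neg (not_lt.2 hl.le), one_mul]
      rw [Gr_upd hinj hy (κ := (Fin.elim0 : Fin 0 → Fin 2)) (fun a => a.elim0) l.2 (fun t => t.elim0) (fun t _ => by
        have hlv : (l : ℕ) < i := hl
        rw [Fin.le_def]
        fin_cases t
        · change ¬ (i : ℕ) ≤ l; omega
        · change ¬ (i : ℕ) + 1 ≤ l; omega)]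
      rw [Matrix.det_isEmpty, map_one, one_pow]
    · rw [if_pos rfl, if_neg (lt_irrefl _), mul_one]
      rw [Gr_upd hinj hy (κ := (![0] : Fin 1 → Fin 2)) (fun a b _ => Subsingleton.elim a b) l.2 (fun t => by
        fin_cases t; exact le_refl _) (fun t ht => by
        rw [Fin.le_def]
        fin_cases t
        · exact absurd ⟨0, rfl⟩ ht
        · change ¬ (l : ℕ) + 1 ≤ l; omega)]
      rw [Matrix.det_fin_one]
      rfl
    · rw [if_neg hl.ne', if_pos hl, one_mul]
      have hlv : (i : ℕ) < l := hl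
      rw [Gr_upd hinj hy (κ := (id : Fin 2 → Fin 2)) (fun a b h => h) l.2 (fun t => by
        rw [Fin.le_def]
        fin_cases t
        · change (i : ℕ) ≤ l; omega
        · change (i : ℕ) + 1 ≤ l; omega) (fun t ht => absurd ⟨t, rfl⟩ ht)]
      rfl
  rw [Finset.prod_congr rfl fun l _ => key l, Finset.prod_mul_distrib, Finset.prod_ite_eq' Finset.univ i,
    if_pos (Finset.mem_univ _), ← Finset.prod_filter, Finset.prod_pow_eq_pow_sum]

end coords

/-- a pair in coordinates -/
abbrev Pr (K : Type) : Type := (Fin 4 → K) × (Fin 4 → K)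

/-- the kernel `j (h v v') ^ θ * j (G_2) ^ l` is realised in `V` -/
def KerC {k : Type*} [Field k] (q : ℕ) (j : K →+* k) (θ l : ℕ) (V : Type*) [AddCommGroup V] [Module k V] : Prop :=
  ∃ (vv : Pr K → V) (ff : Pr K → Module.Dual k V), ∀ x y : Pr K, Ln q x.1 x.2 → Ln q y.1 y.2 →
    ff y (vv x) = j (∑ i, x.1 i * y.1 i ^ q) ^ θ * j (∑ b, pl x.1 x.2 b * pl y.1 y.2 b ^ q) ^ l

section KerC

variable {k : Type*} [Field k] {V : Type*} [AddCommGroup V] [Module k V]

theorem KerC.of_isKer (W : WFrame (PU hK N) m) {j : K →+* k} {θ : Fin m → ℕ} {vv : (Fin m → Fin N → K) → V}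
    {ff : (Fin m → Fin N → K) → Module.Dual k V} (h : IsKer q m j θ vv ff) {i : Fin m} (hi : (i : ℕ) + 1 < m) :
    KerC q j (θ i) (∑ l ∈ Finset.univ.filter (i < ·), θ l) V := by
  set ι : Fin 2 → Fin m := ![i, ⟨i + 1, hi⟩] with hι
  have hne : ι 0 ≠ ι 1 := fun h => absurd (congrArg Fin.val h) (by simp [hι])
  have hinj : Function.Injective ι := by
    intro a b hab
    fin_cases a <;> fin_cases b
    · rfl
    · exact absurd hab hne
    · exact absurd hab.symm hne
    · rfl
  refine ⟨fun x => vv (upd W.e ι ![vc W ι true x.1, vc W ι true x.2]),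
    fun y => ff (upd W.f ι ![vc W ι false y.1, vc W ι false y.2]), fun x y hx hy => ?_⟩
  have hLx := loc_vc W hne m true hx
  have hLy := loc_vc W hne m false hy
  have e1 := prod_patch W j θ hi (x := ![vc W ι true x.1, vc W ι true x.2])
    (y := ![vc W ι false y.1, vc W ι false y.2]) hLy.perp
  have e2 := h.ker _ _ (pfr_upd hinj (fun t => (ι t).2) hLx true) (pfr_upd hinj (fun t => (ι t).2) hLy false)
  refine (e2.trans e1).trans ?_
  rw [det_vc W hne]
  congr 3
  change hermForm N K q (vc W ι true x.1) (vc W ι false y.1) = _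
  have h2 := herm_vc_dual W hne true x.1 y.1
  simp only [Bool.not_true] at h2
  rw [h2, Fin.sum_univ_four]

theorem KerC.twist {p f : ℕ} [Fact p.Prime] [CharP K p] (hqf : Fintype.card K = p ^ f) {j : K →+* k} {θ l a : ℕ}
    (ha : a ≤ f) (h : KerC q j (p ^ a * θ) l V) :
    KerC q (j.comp (iterateFrobenius K p a)) θ (l * p ^ (f - a)) V := by
  obtain ⟨vv, ff, h⟩ := h
  refine ⟨vv, ff, fun x y hx hy => ?_⟩
  rw [h x y hx hy]
  congr 1
  · rw [pow_mul, RingHom.comp_apply, iterateFrobenius_def, map_pow]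
  · rw [RingHom.comp_apply, iterateFrobenius_def, ← map_pow, ← map_pow, ← pow_mul, mul_comm l, ← mul_assoc, ← pow_add,
      Nat.add_sub_cancel' ha, pow_mul, ← hqf, FiniteField.pow_card]

variable [FiniteDimensional k V]

theorem KerC.le_finrank {j : K →+* k} {θ l : ℕ} (h : KerC q j θ l V) {X Y : Type*} [Fintype X] [Fintype Y]
    {f : X → Pr K} {g : Y → Pr K} (hf : ∀ x, Ln q (f x).1 (f x).2) (hg : ∀ y, Ln q (g y).1 (g y).2) {n : ℕ}
    (hn : Rk (fun x y => j (∑ i, (f x).1 i * (g y).1 i ^ q) ^ θ *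
      j (∑ b, pl (f x).1 (f x).2 b * pl (g y).1 (g y).2 b ^ q) ^ l) n) : n ≤ Module.finrank k V := by
  obtain ⟨vv, ff, h⟩ := h
  exact Rk.le_finrank (vv := fun x => vv (f x)) (ff := fun y => ff (g y)) (fun x y => h _ _ (hf x) (hg y)) hn

end KerC

end Cfsg.Agent.H922.D3
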