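import Cfsg.Agent.H922.D3.SFlag

/-!
# The numbers `RR' p q e` (helper922)
-/

set_option autoImplicit false
set_option linter.unusedSectionVars false

namespace Cfsg.Agent.H922.D3

open Cfsg.Agent.H876.D3

section

variable {p : ℕ} [hp : Fact p.Prime]

theorem two_le_RR' (q e : ℕ) : 2 ≤ RR' p q e := two_le_card_Ib (red_ne_zero _ _)

theorem RR'_cases (q e : ℕ) : (∃ a, red q e = p ^ a) ∨ (3 ≤ RR' p q e ∧ p ≠ 2 ∧ ∃ a, red q e = 2 * p ^ a) ∨
    4 ≤ RR' p q e := by
  rcases Ib_cases (p := p) (red_ne_zero q e) with h | h | h | h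
  · exact Or.inl h
  · exact Or.inr (Or.inl h)
  · exact Or.inr (Or.inr h.1)
  · exact Or.inr (Or.inr (le_trans (by norm_num) h))

theorem pow_le_card_Ib (b : ℕ) : p ^ b ≤ (Ib p (p ^ b - 1)).card := by
  induction b with
  | zero =>
    have h1 : 0 ∈ Ib p (p ^ 0 - 1) := zero_mem_Ib _
    rw [pow_zero]
    exact Finset.card_pos.2 ⟨0, h1⟩
  | succ b ih =>
    have hpp := hp.out.pos
    have h1 : p ^ (b + 1) - 1 = p * (p ^ b - 1) + (p - 1) := by
      have h2 : 1 ≤ p ^ b := Nat.one_le_pow _ _ hpp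
      have h3 : p * (p ^ b - 1) + p = p ^ (b + 1) := by
        rw [← Nat.mul_succ, Nat.succ_eq_add_one, Nat.sub_add_cancel h2, pow_succ']
      omega
    have h2 := card_Ib_mul (p := p) (t := p ^ b - 1) (d := p - 1) (by omega)
    rw [← h1, Nat.sub_add_cancel hpp] at h2
    calc p ^ (b + 1) = p * p ^ b := pow_succ' _ _
      _ ≤ p * (Ib p (p ^ b - 1)).card := Nat.mul_le_mul_left p ih
      _ ≤ _ := h2

theorem Ib_one : Ib p 1 = {0, 1} := by
  ext i
  rw [mem_Ib, Finset.mem_insert, Finset.mem_singleton]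
  constructor
  · intro h; omega
  · rintro (rfl | rfl)
    · exact ⟨by omega, (mem_Ib.1 (zero_mem_Ib (p := p) 1)).2⟩
    · exact ⟨le_rfl, (mem_Ib.1 (self_mem_Ib (p := p) 1)).2⟩

theorem Ib_two (h2 : p ≠ 2) : Ib p 2 = {0, 1, 2} := by
  ext i
  rw [mem_Ib, Finset.mem_insert, Finset.mem_insert, Finset.mem_singleton]
  constructor
  · intro h; omega
  · rintro (rfl | rfl | rfl)
    · exact ⟨by omega, (mem_Ib.1 (zero_mem_Ib (p := p) 2)).2⟩
    · refine ⟨by omega, ?_⟩
      rw [Nat.choose_one_right]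
      intro h
      exact h2 ((Nat.prime_dvd_prime_iff_eq hp.out Nat.prime_two).1 h)
    · exact ⟨le_rfl, (mem_Ib.1 (self_mem_Ib (p := p) 2)).2⟩

/-- two neighbouring exponents -/
theorem RR'_succ {q f : ℕ} (hq : q = p ^ f) (hf : f ≠ 0) {l : ℕ} (hl : l ≠ 0) :
    7 ≤ RR' p q l * RR' p q (l + 1) ∨ red q l = 1 ∨ (p = 3 ∧ red q l = 2) := by
  have hp2 := hp.out.two_le
  have hq2 : 2 ≤ q := by rw [hq]; exact hp2.trans (Nat.le_self_pow hf p)
  have hle := red_le (e := l) hq2
  have h1 := two_le_RR' (p := p) q l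
  have h2 := two_le_RR' (p := p) q (l + 1)
  have big : 4 ≤ RR' p q l ∨ 4 ≤ RR' p q (l + 1) → 7 ≤ RR' p q l * RR' p q (l + 1) := by
    rintro (h | h)
    · calc 7 ≤ 4 * 2 := by norm_num
        _ ≤ _ := Nat.mul_le_mul h h2
    · calc 7 ≤ 2 * 4 := by norm_num
        _ ≤ _ := Nat.mul_le_mul h1 h
  rcases Nat.lt_or_ge (red q l) (q - 1) with hlt | hge
  · have hs := red_succ hl hlt
    have key : ∀ x b : ℕ, 1 ≤ x → ¬ (p * x + 1 = p ^ b) := by
      intro x b hx hb
      have hb0 : b ≠ 0 := by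
        rintro rfl
        rw [pow_zero] at hb
        have := Nat.mul_le_mul hp2 hx
        omega
      have h3 : p ∣ 1 := by
        have h4 : p ∣ p * x + 1 := hb ▸ dvd_pow_self p hb0
        exact (Nat.dvd_add_right (dvd_mul_right p x)).1 h4
      have := Nat.le_of_dvd one_pos h3
      omega
    rcases RR'_cases (p := p) q l with ⟨a, ha⟩ | ⟨h3, hp3, a, ha⟩ | h3
    · rcases Nat.eq_zero_or_pos a with rfl | ha0
      · right; left; rw [ha, pow_zero]
      obtain ⟨a, rfl⟩ := Nat.exists_eq_succ_of_ne_zero ha0.ne'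
      have hpa : 1 ≤ p ^ a := Nat.one_le_pow _ _ (by omega)
      rcases RR'_cases (p := p) q (l + 1) with ⟨b, hb⟩ | ⟨h4, hp4, b, hb⟩ | h4
      · exfalso
        rw [hs, ha, Nat.succ_eq_add_one, pow_succ'] at hb
        exact key _ b hpa hb
      · exfalso
        rw [hs, ha, Nat.succ_eq_add_one, pow_succ'] at hb
        rcases Nat.eq_zero_or_pos b with rfl | hb0
        · rw [pow_zero] at hb
          have := Nat.mul_le_mul hp2 hpa
          omega
        · have h3 : p ∣ 1 := by
            have h4 : p ∣ p * p ^ a + 1 := hb ▸ (dvd_pow_self p hb0.ne').mul_left 2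
            exact (Nat.dvd_add_right (dvd_mul_right p _)).1 h4
          have := Nat.le_of_dvd one_pos h3
          omega
      · exact Or.inl (big (Or.inr h4))
    · rcases RR'_cases (p := p) q (l + 1) with ⟨b, hb⟩ | ⟨h4, hp4, b, hb⟩ | h4
      · rw [hs, ha] at hb
        rcases Nat.eq_zero_or_pos a with rfl | ha0
        · right; right
          rw [pow_zero] at hb ha
          have hb0 : b ≠ 0 := by rintro rfl; rw [pow_zero] at hb; omega
          have h5 : p ∣ 3 := by
            have h6 : p ∣ 2 * 1 + 1 := hb ▸ dvd_pow_self p hb0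
            exact h6
          exact ⟨(Nat.prime_dvd_prime_iff_eq hp.out Nat.prime_three).1 h5, by omega⟩
        · exfalso
          obtain ⟨a, rfl⟩ := Nat.exists_eq_succ_of_ne_zero ha0.ne'
          have hpa : 1 ≤ p ^ a := Nat.one_le_pow _ _ (by omega)
          refine key (2 * p ^ a) b (by omega) ?_
          rw [← hb, Nat.succ_eq_add_one, pow_succ']
          ring
      · left
        calc 7 ≤ 3 * 3 := by norm_num
          _ ≤ _ := Nat.mul_le_mul h3 h4
      · exact Or.inl (big (Or.inr h4))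
    · exact Or.inl (big (Or.inl h3))
  · have heq : red q l = q - 1 := le_antisymm hle hge
    have h3 : q ≤ RR' p q l := by
      unfold RR'
      rw [heq]
      subst hq
      exact pow_le_card_Ib f
    rcases Nat.lt_or_ge q 4 with hq4 | hq4
    · rcases (show q = 2 ∨ q = 3 by omega) with h4 | h4
      · right; left; rw [heq, h4]
      · right; right
        refine ⟨?_, by rw [heq, h4]⟩
        have h5 : p ∣ 3 := by rw [← h4, hq]; exact dvd_pow_self p hf
        exact (Nat.prime_dvd_prime_iff_eq hp.out Nat.prime_three).1 h5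
    · exact Or.inl (big (Or.inl (hq4.trans h3)))

/-- even exponents -/
theorem three_le_RR' {q f : ℕ} (h2 : p ≠ 2) (hq : q = p ^ f) {l : ℕ} (hl : l ≠ 0) (he : Even l) :
    3 ≤ RR' p q l := by
  have hodd : Odd p := hp.out.odd_of_ne_two h2
  have hqo : Odd q := hq ▸ hodd.pow
  rcases RR'_cases (p := p) q l with ⟨a, ha⟩ | ⟨h3, -⟩ | h3
  · exfalso
    have h4 := red_modEq (Q := q) hl
    have h5 : 2 ∣ q - 1 := by
      obtain ⟨r, rfl⟩ := hqo
      exact ⟨r, by omega⟩
    have h6 : red q l ≡ l [MOD 2] := h4.of_dvd h5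
    have h7 : Odd (red q l) := ha ▸ hodd.pow
    rw [Nat.ModEq, Nat.odd_iff.1 h7, Nat.even_iff.1 he] at h6
    exact one_ne_zero h6
  · exact h3
  · omega

end

end Cfsg.Agent.H922.D3
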