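import Cfsg.Agent.H922.D3.Flag

/-!
# The flags `S` (helper922)

* `sf ε (λ, s, t)` : the pair `(e₀ + ε s f₀ + λ (e₁ + ε t f₁), e₁ + ε t f₁)`;
* `RR' p q e` : the rank of `(1 + c s s') ^ e` on `E`; `S_bound`.
-/

set_option autoImplicit false
set_option linter.unusedSectionVars false

namespace Cfsg.Agent.H922.D3

open Cfsg Cfsg.Geo Matrix Cfsg.Agent.H876.D3
open LieClassical.HermBasic LieClassical.HermSiegel Cfsg.Agent.TitsThree.KSideU Cfsg.Agent.TitsThree.KSideUDesc
  Cfsg.Agent.TitsThree.WBridge Cfsg.Agent.TitsThree.SiegelGen Cfsg.Agent.TitsThree.Siegel Cfsg.Agent.H61.SUCross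
  Cfsg.Agent.TitsThree.WittFrame
open Cfsg.Agent.Phan (fixedField mem_fixedField card_fixedField)

variable {K : Type} [Field K] [Fintype K] {N q m : ℕ} {hK : Fintype.card K = q ^ 2}

/-- the flags `S` -/
def sf (ε : K) (z : K × (fixedField hK × fixedField hK)) : Pr K :=
  (![1, ε * (z.2.1 : K), z.1, z.1 * (ε * (z.2.2 : K))], ![0, 0, 1, ε * (z.2.2 : K)])

theorem ln_sf {ε : K} (hε : ε ^ q = -ε) (z : K × (fixedField hK × fixedField hK)) : Ln q (sf ε z).1 (sf ε z).2 where
  vv := by simp [sf, mul_pow, hε, E_q hK]; ring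
  vw := by simp [sf, mul_pow, hε, E_q hK, zero_pow_q hK]
  wv := by simp [sf, mul_pow, hε, E_q hK, zero_pow_q hK]; ring
  ww := by simp [sf, mul_pow, hε, E_q hK]
  pl_ne := ⟨0, by simp [sf, pl]⟩

theorem h_sf {ε : K} (hε : ε ^ q = -ε) {c : fixedField hK} (hc : (c : K) = -ε ^ 2)
    (z w : K × (fixedField hK × fixedField hK)) :
    ∑ i, (sf ε z).1 i * (sf ε w).1 i ^ q = ((1 + c * (z.2.1 * w.2.1) : fixedField hK) : K) +
      z.1 * w.1 ^ q * ((1 + c * (z.2.2 * w.2.2) : fixedField hK) : K) := by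
  rw [Fin.sum_univ_four]
  simp only [sf, Matrix.cons_val]
  push_cast
  simp only [mul_pow, hε, E_q hK, one_pow]
  rw [hc]
  ring

theorem g_sf {ε : K} (hε : ε ^ q = -ε) {c : fixedField hK} (hc : (c : K) = -ε ^ 2)
    (z w : K × (fixedField hK × fixedField hK)) :
    ∑ b, pl (sf ε z).1 (sf ε z).2 b * pl (sf ε w).1 (sf ε w).2 b ^ q =
      ((1 + c * (z.2.1 * w.2.1) : fixedField hK) : K) * ((1 + c * (z.2.2 * w.2.2) : fixedField hK) : K) := by
  have e4 : ∀ a b : K, a * b - a * b = 0 := fun a b => sub_self _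
  simp only [Fin.sum_univ_six, sf, pl, Matrix.cons_val]
  push_cast
  simp only [mul_one, mul_zero, sub_zero, one_mul, one_pow, zero_pow_q hK, mul_pow, hε, E_q hK, sub_self]
  rw [hc]
  ring

/-- the rank of `(1 + c s s') ^ e` -/
def RR' (p q e : ℕ) : ℕ := (Ib p (red q e)).card

section

variable {k : Type*} [Field k] {V : Type*} [AddCommGroup V] [Module k V] [FiniteDimensional k V] {j : K →+* k}

/-- the rows of the flags `S` -/
theorem S_rank (p : ℕ) [hp : Fact p.Prime] [CharP K p] [CharP k p] [Fintype (fixedField hK)] {c : fixedField hK}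
    (hc0 : c ≠ 0) {θ l : ℕ} (hθ : θ < Fintype.card K) (hl : l ≠ 0) :
    Rk (fun z w : K × (fixedField hK × fixedField hK) =>
      j (((1 + c * (z.2.1 * w.2.1) : fixedField hK) : K) +
      z.1 * w.1 ^ q * ((1 + c * (z.2.2 * w.2.2) : fixedField hK) : K)) ^ θ *
      j (((1 + c * (z.2.1 * w.2.1) : fixedField hK) : K) * ((1 + c * (z.2.2 * w.2.2) : fixedField hK) : K)) ^ l)
      (∑ i ∈ Ib p θ, RR' p q (θ - i + l) * RR' p q (i + l)) := by
  let jE : fixedField hK →+* k := j.comp (fixedField hK).subtype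
  refine Rk.graded (τ := j) (τ' := jb hK j)
    (κc := fun i x y => (θ.choose i : k) * (jE (1 + c * (x.1 * y.1)) ^ (θ - i + l) * jE (1 + c * (x.2 * y.2)) ^ (i + l)))
    j.injective (jb hK j).injective (fun i hi => (mem_Ib.1 hi).1.trans_lt hθ) ?_ ?_
  · rintro z ⟨s, t⟩ w ⟨s', t'⟩
    simp only
    rw [map_add, map_mul, map_mul, map_mul j ((1 + c * (s * s') : fixedField hK) : K), add_pow_Ib (p := p), Finset.sum_mul]
    refine Finset.sum_congr rfl fun i _ => ?_
    rw [mul_pow, mul_pow, mul_pow, pow_add, pow_add, jb_apply, map_pow]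
    change _ = _ * ((θ.choose i : k) * (j ((1 + c * (s * s') : fixedField hK) : K) ^ (θ - i) * j ((1 + c * (s * s') : fixedField hK) : K) ^ l *
      (j ((1 + c * (t * t') : fixedField hK) : K) ^ i * j ((1 + c * (t * t') : fixedField hK) : K) ^ l)))
    ring
  · intro i hi
    have h1 := Rk_pow (p := p) jE hc0 (e := θ - i + l) (by omega)
    have h2 := Rk_pow (p := p) jE hc0 (e := i + l) (by omega)
    rw [card_E] at h1 h2
    exact Rk.scale (a := fun _ => (θ.choose i : k)) (b := fun _ => 1) (fun _ => choose_ne hi) (fun _ => one_ne_zero)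
      (fun x y => by rw [mul_one]) (h1.kron h2)

/-- **The bound of the flags `S`.** -/
theorem S_bound (p : ℕ) [hp : Fact p.Prime] [CharP K p] [CharP k p] {θ l : ℕ} (hθ : θ < Fintype.card K) (hl : l ≠ 0)
    (hK : Fintype.card K = q ^ 2) (h : KerC q j θ l V) :
    ∑ i ∈ Ib p θ, RR' p q (θ - i + l) * RR' p q (i + l) ≤ Module.finrank k V := by
  obtain ⟨ε, c, hε, hε0, hc0, hc⟩ := exists_c hK
  have : Fintype (fixedField hK) := Fintype.ofFinite _
  refine h.le_finrank (f := sf ε) (g := sf ε) (fun x => ln_sf hε x) (fun x => ln_sf hε x)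
    ((S_rank p (j := j) hc0 hθ hl).congr fun x y => ?_)
  rw [h_sf hε hc, g_sf hε hc]

end

end Cfsg.Agent.H922.D3
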