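import Cfsg.Agent.H922.D3.ExTwo

/-!
# Two nodes (helper922)

* **`two_nodes`** : a kernel of `SU_N(q)` with two non-zero exponents has rank at least 13.
-/

set_option autoImplicit false
set_option linter.unusedSectionVars false

namespace Cfsg.Agent.H922.D3

open Cfsg Cfsg.Geo Matrix Cfsg.Agent.H876.D3
open LieClassical.HermBasic LieClassical.HermSiegel Cfsg.Agent.TitsThree.KSideU Cfsg.Agent.TitsThree.KSideUDesc
  Cfsg.Agent.TitsThree.WBridge Cfsg.Agent.TitsThree.SiegelGen Cfsg.Agent.TitsThree.Siegel Cfsg.Agent.H61.SUCross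
  Cfsg.Agent.TitsThree.WittFrame

variable {K : Type} [Field K] [Fintype K] {N q m : ℕ} {hK : Fintype.card K = q ^ 2}

section

variable {k : Type*} [Field k] {V : Type*} [AddCommGroup V] [Module k V] [FiniteDimensional k V] {j : K →+* k}

theorem kerC_bound (p : ℕ) [hp : Fact p.Prime] [CharP K p] [CharP k p] (hK : Fintype.card K = q ^ 2) {t l : ℕ}
    (ht0 : t ≠ 0) (ht : t < Fintype.card K) (hl : l ≠ 0) (h : KerC q j t l V) : 13 ≤ Module.finrank k V := by
  obtain ⟨f, hf, hcard⟩ := FiniteField.card K p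
  obtain ⟨g, hg, hqg⟩ := (Nat.dvd_prime_pow hp.out).1 (show q ∣ p ^ (f : ℕ) from by
    rw [← hcard, hK]; exact dvd_pow_self q two_ne_zero)
  have hq2 : 2 ≤ q := two_le_q hK
  have hg0 : g ≠ 0 := by
    rintro rfl
    rw [pow_zero] at hqg
    omega
  have hpp := hp.out.pos
  have big : 4 ≤ (Ib p t).card → 13 ≤ Module.finrank k V := by
    intro h4
    have h1 := S_bound p (V := V) ht hl hK h
    have h2 : ∑ i ∈ Ib p t, 4 ≤ ∑ i ∈ Ib p t, RR' p q (t - i + l) * RR' p q (i + l) :=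
      Finset.sum_le_sum fun i _ => Nat.mul_le_mul (two_le_RR' (p := p) q _) (two_le_RR' (p := p) q _)
    rw [Finset.sum_const, smul_eq_mul] at h2
    omega
  have hexp : ∀ e c : ℕ, 1 ≤ c → t = c * p ^ e → e ≤ (f : ℕ) := by
    intro e c hc he
    by_contra hlt
    have h1 : p ^ (f : ℕ) ≤ p ^ e := Nat.pow_le_pow_right hpp (by omega)
    have h2 : 1 * p ^ e ≤ c * p ^ e := Nat.mul_le_mul_right _ hc
    rw [hcard] at ht
    omega
  rcases Ib_cases (p := p) ht0 with ⟨e, he⟩ | ⟨-, hp2, e, he⟩ | ⟨h4, -⟩ | h5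
  · have hef := hexp e 1 le_rfl (by rw [he, one_mul])
    have h1 := KerC.twist (V := V) (p := p) hcard (j := j) (θ := 1) (l := l) hef (by rw [mul_one, ← he]; exact h)
    have hl' : l * p ^ ((f : ℕ) - e) ≠ 0 := mul_ne_zero hl (pow_ne_zero _ hpp.ne')
    rcases RR'_succ (p := p) hqg hg0 hl' with h2 | h2 | ⟨h2, h3⟩
    · have h3 := S_bound p (V := V) (θ := 1) Fintype.one_lt_card hl' hK h1
      rw [Ib_one, Finset.sum_pair (by norm_num)] at h3
      simp only [Nat.sub_zero, Nat.sub_self, zero_add] at h3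
      rw [add_comm 1, mul_comm (RR' p q (l * p ^ ((f : ℕ) - e) + 1))] at h3
      omega
    · have := ex_one hK hl' h2 h1
      omega
    · subst h2
      exact ex_two hK hl' h3 h1
  · have hef := hexp e 2 (by norm_num) he
    have h1 := KerC.twist (V := V) (p := p) hcard (j := j) (θ := 2) (l := l) hef (by rw [mul_comm, ← he]; exact h)
    have hl' : l * p ^ ((f : ℕ) - e) ≠ 0 := mul_ne_zero hl (pow_ne_zero _ hpp.ne')
    have h2K : 2 < Fintype.card K := by
      rw [hK]
      calc 2 < 2 ^ 2 := by norm_num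
        _ ≤ q ^ 2 := Nat.pow_le_pow_left hq2 2
    have h3 := S_bound p (V := V) (θ := 2) h2K hl' hK h1
    generalize l * p ^ ((f : ℕ) - e) = l' at hl' h3
    rw [Ib_two hp2, Finset.sum_insert (by decide), Finset.sum_pair (by decide)] at h3
    simp only [Nat.sub_zero, Nat.sub_self, zero_add, (by norm_num : 2 - 1 = 1)] at h3
    have a0 := two_le_RR' (p := p) q l'
    have a1 := two_le_RR' (p := p) q (1 + l')
    have a2 := two_le_RR' (p := p) q (2 + l')
    rcases Nat.even_or_odd l' with hev | hodd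
    · have b0 := three_le_RR' (p := p) hp2 hqg hl' hev
      have b2 := three_le_RR' (p := p) hp2 hqg (l := 2 + l') (by omega) ((by decide : Even 2).add hev)
      have c1 : 3 * 3 ≤ RR' p q (2 + l') * RR' p q l' := Nat.mul_le_mul b2 b0
      have c2 : 2 * 2 ≤ RR' p q (1 + l') * RR' p q (1 + l') := Nat.mul_le_mul a1 a1
      have c3 : 3 * 3 ≤ RR' p q l' * RR' p q (2 + l') := Nat.mul_le_mul b0 b2
      omega
    · have b1 := three_le_RR' (p := p) hp2 hqg (l := 1 + l') (by omega) ((by decide : Odd 1).add_odd hodd)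
      have c1 : 2 * 2 ≤ RR' p q (2 + l') * RR' p q l' := Nat.mul_le_mul a2 a0
      have c2 : 3 * 3 ≤ RR' p q (1 + l') * RR' p q (1 + l') := Nat.mul_le_mul b1 b1
      have c3 : 2 * 2 ≤ RR' p q l' * RR' p q (2 + l') := Nat.mul_le_mul a0 a2
      omega
  · exact big h4
  · exact big (by omega)

/-- **Two nodes.** -/
theorem two_nodes (p : ℕ) [hp : Fact p.Prime] [CharP K p] [CharP k p] (W : WFrame (PU hK N) m) {θ : Fin m → ℕ}
    {vv : (Fin m → Fin N → K) → V} {ff : (Fin m → Fin N → K) → Module.Dual k V} (h : IsKer q m j θ vv ff)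
    (hle : ∀ i, θ i ≤ q ^ 2 - 1) {a b : Fin m} (hab : a < b) (ha : θ a ≠ 0) (hb : θ b ≠ 0) :
    13 ≤ Module.finrank k V := by
  have hi : (a : ℕ) + 1 < m := by
    have h1 : (a : ℕ) < b := hab
    have h2 := b.2
    omega
  have hq2 : 2 ≤ q := two_le_q hK
  refine kerC_bound p hK ha ?_ ?_ (KerC.of_isKer W h hi)
  · rw [hK]
    have h1 := hle a
    have h2 : 0 < q ^ 2 := pow_pos (by omega) 2
    omega
  · intro h0
    rw [Finset.sum_eq_zero_iff] at h0
    exact hb (h0 b (Finset.mem_filter.2 ⟨Finset.mem_univ _, hab⟩))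

end

end Cfsg.Agent.H922.D3
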